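import Cfsg.Agent.H852.Fi22Data

/-!
Kernel check of the first relation of type E7.
-/

set_option autoImplicit false

namespace Cfsg.Agent.H852.Fi22RelC

open Cfsg.Agent.Lib.PackMat Cfsg.Agent.H852.Fi22Data

theorem e7a : checkScalar C [Ga, Gb, Gc, Gd, Ge, Gf, Gh, Ga, Gb, Gc, Gd, Ge, Gf, Gh, Ga, Gb, Gc, Gd, Ge, Gf, Gh, Ga, Gb, Gc, Gd, Ge, Gf, Gh, Ga, Gb, Gc, Gd, Ge, Gf, Gh, Ga, Gb, Gc, Gd, Ge, Gf, Gh, Ga, Gb, Gc, Gd, Ge, Gf, Gh, Ga, Gb, Gc, Gd, Ge, Gf, Gh, Ga, Gb, Gc, Gd, Ge, Gf, Gh] 1 0 C.n = true := by decide +kernel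

end Cfsg.Agent.H852.Fi22RelC
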