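import Cfsg.Agent.H852.Fi22Data

/-!
Kernel check of the second relation of type E7.
-/

set_option autoImplicit false

namespace Cfsg.Agent.H852.Fi22RelD

open Cfsg.Agent.Lib.PackMat Cfsg.Agent.H852.Fi22Data

theorem e7b : checkScalar C [Gb, Gc, Gd, Ge, Gf, Gg, Gh, Gb, Gc, Gd, Ge, Gf, Gg, Gh, Gb, Gc, Gd, Ge, Gf, Gg, Gh, Gb, Gc, Gd, Ge, Gf, Gg, Gh, Gb, Gc, Gd, Ge, Gf, Gg, Gh, Gb, Gc, Gd, Ge, Gf, Gg, Gh, Gb, Gc, Gd, Ge, Gf, Gg, Gh, Gb, Gc, Gd, Ge, Gf, Gg, Gh, Gb, Gc, Gd, Ge, Gf, Gg, Gh] 1 0 C.n = true := by decide +kernel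

end Cfsg.Agent.H852.Fi22RelD
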