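import Cfsg.Prelude.Def_Spor_Fi22
import Cfsg.Agent.H852.Fi22RelA
import Cfsg.Agent.H852.Fi22RelB
import Cfsg.Agent.H852.Fi22RelC
import Cfsg.Agent.H852.Fi22RelD

/-!
The representation of degree 78 over the field with 13 elements of the presented Fischer group Fi22.

Model: the space has a basis `e_0` and `e_h` for the 77 hexads `h` of the Steiner system S(3,6,22); the 22 basic
transpositions act diagonally, and one further transposition is
`(1/16) * [[-5, 1, ...], [3, ...], ...]` with entries -7 on the diagonal, -3 for disjoint hexads and 1 for hexads meeting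
in two points. The nine generators are transpositions of this group.
-/

set_option autoImplicit false

namespace Cfsg.Agent.H852.Fi22Rep

open Cfsg.Agent.Lib.PackMat Cfsg.Agent.H852.Fi22Data Cfsg.Spor

/-- The code of the matrix of a generator. -/
def code : Fi22.Gen → ℕ
  | .a => Ga
  | .b => Gb
  | .c => Gc
  | .d => Gd
  | .e => Ge
  | .f => Gf
  | .g => Gg
  | .h => Gh
  | .i => Gi

theorem ok (x : Fi22.Gen) : okG C (code x) = true := by
  cases x
  · exact Fi22RelA.ok_a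
  · exact Fi22RelA.ok_b
  · exact Fi22RelA.ok_c
  · exact Fi22RelA.ok_d
  · exact Fi22RelA.ok_e
  · exact Fi22RelA.ok_f
  · exact Fi22RelA.ok_g
  · exact Fi22RelA.ok_h
  · exact Fi22RelA.ok_i

theorem one_lt_p : 1 < C.p := by decide

theorem ok_map (w : List Fi22.Gen) : ∀ g ∈ w.map code, okG C g = true := by
  intro g hg
  obtain ⟨x, -, rfl⟩ := List.mem_map.mp hg
  exact ok x

/-- The product of the matrices of a word. -/
noncomputable def mw (w : List Fi22.Gen) : Matrix (Fin 78) (Fin 78) (ZMod 13) := ((w.map code).map (mat C)).prod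

theorem mw_append (v w : List Fi22.Gen) : mw (v ++ w) = mw v * mw w := by
  rw [mw, List.map_append, List.map_append, List.prod_append]; rfl

theorem mw_eq_one {w : List Fi22.Gen} (h : checkScalar C (w.map code) 1 0 C.n = true) : mw w = 1 :=
  prod_one_of_check good one_lt_p (ok_map w) h

theorem mw_sq (x : Fi22.Gen) : mw [x, x] = 1 := by
  apply mw_eq_one
  cases x
  · exact Fi22RelA.r_aa
  · exact Fi22RelA.r_bb
  · exact Fi22RelA.r_cc
  · exact Fi22RelA.r_dd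
  · exact Fi22RelA.r_ee
  · exact Fi22RelA.r_ff
  · exact Fi22RelA.r_gg
  · exact Fi22RelA.r_hh
  · exact Fi22RelA.r_ii

theorem mw_pair (x y : Fi22.Gen) : mw [x, y] = mw [x] * mw [y] := mw_append [x] [y]

/-- The matrix of a generator as an invertible matrix. -/
noncomputable def gl (x : Fi22.Gen) : GL (Fin 78) (ZMod 13) where
  val := mw [x]
  inv := mw [x]
  val_inv := by rw [← mw_pair, mw_sq]
  inv_val := by rw [← mw_pair, mw_sq]

theorem coe_gl (x : Fi22.Gen) : (gl x : Matrix (Fin 78) (Fin 78) (ZMod 13)) = mw [x] := rfl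

theorem coe_word (w : List Fi22.Gen) : ((w.map gl).prod : GL (Fin 78) (ZMod 13)).val = mw w := by
  induction w with
  | nil => rfl
  | cons x w ih =>
    rw [List.map_cons, List.prod_cons, Units.val_mul, ih, coe_gl, ← mw_append]
    rfl

theorem word_eq_one {w : List Fi22.Gen} (h : mw w = 1) : (w.map gl).prod = 1 := by
  apply Units.ext
  rw [coe_word, h, Units.val_one]

theorem inv_gl (x : Fi22.Gen) : (gl x)⁻¹ = gl x := by
  rw [inv_eq_iff_mul_eq_one]
  have := word_eq_one (mw_sq x)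
  simpa using this

theorem sq_gl (x : Fi22.Gen) : gl x * gl x = 1 := by
  have := word_eq_one (mw_sq x)
  simpa using this

theorem pow_word (w : List Fi22.Gen) (k : ℕ) :
    (w.map gl).prod ^ k = (((List.replicate k w).flatten).map gl).prod := by
  induction k with
  | zero => rfl
  | succ k ih =>
    rw [pow_succ', ih, List.replicate_succ, List.flatten_cons, List.map_append, List.prod_append]

theorem pow_word_eq_one (w : List Fi22.Gen) (k : ℕ) (h : mw (List.replicate k w).flatten = 1) :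
    (w.map gl).prod ^ k = 1 := by
  rw [pow_word, word_eq_one h]

theorem pair_rel (x y : Fi22.Gen) : (gl x * gl y) ^ coxLabel Fi22.edges x y = 1 := by
  have hsymm : ∀ (u v : Fi22.Gen) (k : ℕ), (gl u * gl v) ^ k = 1 → (gl v * gl u) ^ k = 1 := by
    intro u v k h
    have h1 : gl v * gl u = (gl u * gl v)⁻¹ := by rw [mul_inv_rev, inv_gl, inv_gl]
    rw [h1, inv_pow, h, inv_one]
  have hw : ∀ (u v : Fi22.Gen) (k : ℕ), mw (List.replicate k [u, v]).flatten = 1 → (gl u * gl v) ^ k = 1 := by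
    intro u v k h
    have := pow_word_eq_one [u, v] k h
    simpa using this
  have s_a : (gl .a * gl .a) ^ 1 = 1 := by rw [pow_one, sq_gl]
  have s_b : (gl .b * gl .b) ^ 1 = 1 := by rw [pow_one, sq_gl]
  have s_c : (gl .c * gl .c) ^ 1 = 1 := by rw [pow_one, sq_gl]
  have s_d : (gl .d * gl .d) ^ 1 = 1 := by rw [pow_one, sq_gl]
  have s_e : (gl .e * gl .e) ^ 1 = 1 := by rw [pow_one, sq_gl]
  have s_f : (gl .f * gl .f) ^ 1 = 1 := by rw [pow_one, sq_gl]
  have s_g : (gl .g * gl .g) ^ 1 = 1 := by rw [pow_one, sq_gl]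
  have s_h : (gl .h * gl .h) ^ 1 = 1 := by rw [pow_one, sq_gl]
  have s_i : (gl .i * gl .i) ^ 1 = 1 := by rw [pow_one, sq_gl]
  have h_ab : (gl .a * gl .b) ^ 3 = 1 := hw _ _ _ (mw_eq_one Fi22RelA.r_ab)
  have h_ac : (gl .a * gl .c) ^ 2 = 1 := hw _ _ _ (mw_eq_one Fi22RelA.r_ac)
  have h_ad : (gl .a * gl .d) ^ 2 = 1 := hw _ _ _ (mw_eq_one Fi22RelA.r_ad)
  have h_ae : (gl .a * gl .e) ^ 2 = 1 := hw _ _ _ (mw_eq_one Fi22RelA.r_ae)
  have h_af : (gl .a * gl .f) ^ 2 = 1 := hw _ _ _ (mw_eq_one Fi22RelA.r_af)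
  have h_ag : (gl .a * gl .g) ^ 2 = 1 := hw _ _ _ (mw_eq_one Fi22RelA.r_ag)
  have h_ah : (gl .a * gl .h) ^ 2 = 1 := hw _ _ _ (mw_eq_one Fi22RelA.r_ah)
  have h_ai : (gl .a * gl .i) ^ 2 = 1 := hw _ _ _ (mw_eq_one Fi22RelA.r_ai)
  have h_bc : (gl .b * gl .c) ^ 3 = 1 := hw _ _ _ (mw_eq_one Fi22RelA.r_bc)
  have h_bd : (gl .b * gl .d) ^ 2 = 1 := hw _ _ _ (mw_eq_one Fi22RelA.r_bd)
  have h_be : (gl .b * gl .e) ^ 2 = 1 := hw _ _ _ (mw_eq_one Fi22RelA.r_be)
  have h_bf : (gl .b * gl .f) ^ 2 = 1 := hw _ _ _ (mw_eq_one Fi22RelA.r_bf)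
  have h_bg : (gl .b * gl .g) ^ 2 = 1 := hw _ _ _ (mw_eq_one Fi22RelA.r_bg)
  have h_bh : (gl .b * gl .h) ^ 2 = 1 := hw _ _ _ (mw_eq_one Fi22RelA.r_bh)
  have h_bi : (gl .b * gl .i) ^ 2 = 1 := hw _ _ _ (mw_eq_one Fi22RelA.r_bi)
  have h_cd : (gl .c * gl .d) ^ 3 = 1 := hw _ _ _ (mw_eq_one Fi22RelA.r_cd)
  have h_ce : (gl .c * gl .e) ^ 2 = 1 := hw _ _ _ (mw_eq_one Fi22RelA.r_ce)
  have h_cf : (gl .c * gl .f) ^ 2 = 1 := hw _ _ _ (mw_eq_one Fi22RelA.r_cf)
  have h_cg : (gl .c * gl .g) ^ 2 = 1 := hw _ _ _ (mw_eq_one Fi22RelA.r_cg)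
  have h_ch : (gl .c * gl .h) ^ 2 = 1 := hw _ _ _ (mw_eq_one Fi22RelA.r_ch)
  have h_ci : (gl .c * gl .i) ^ 2 = 1 := hw _ _ _ (mw_eq_one Fi22RelA.r_ci)
  have h_de : (gl .d * gl .e) ^ 3 = 1 := hw _ _ _ (mw_eq_one Fi22RelA.r_de)
  have h_df : (gl .d * gl .f) ^ 2 = 1 := hw _ _ _ (mw_eq_one Fi22RelA.r_df)
  have h_dg : (gl .d * gl .g) ^ 2 = 1 := hw _ _ _ (mw_eq_one Fi22RelA.r_dg)
  have h_dh : (gl .d * gl .h) ^ 3 = 1 := hw _ _ _ (mw_eq_one Fi22RelA.r_dh)
  have h_di : (gl .d * gl .i) ^ 2 = 1 := hw _ _ _ (mw_eq_one Fi22RelA.r_di)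
  have h_ef : (gl .e * gl .f) ^ 3 = 1 := hw _ _ _ (mw_eq_one Fi22RelA.r_ef)
  have h_eg : (gl .e * gl .g) ^ 2 = 1 := hw _ _ _ (mw_eq_one Fi22RelA.r_eg)
  have h_eh : (gl .e * gl .h) ^ 2 = 1 := hw _ _ _ (mw_eq_one Fi22RelA.r_eh)
  have h_ei : (gl .e * gl .i) ^ 2 = 1 := hw _ _ _ (mw_eq_one Fi22RelA.r_ei)
  have h_fg : (gl .f * gl .g) ^ 3 = 1 := hw _ _ _ (mw_eq_one Fi22RelA.r_fg)
  have h_fh : (gl .f * gl .h) ^ 2 = 1 := hw _ _ _ (mw_eq_one Fi22RelA.r_fh)
  have h_fi : (gl .f * gl .i) ^ 2 = 1 := hw _ _ _ (mw_eq_one Fi22RelA.r_fi)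
  have h_gh : (gl .g * gl .h) ^ 2 = 1 := hw _ _ _ (mw_eq_one Fi22RelA.r_gh)
  have h_gi : (gl .g * gl .i) ^ 2 = 1 := hw _ _ _ (mw_eq_one Fi22RelA.r_gi)
  have h_hi : (gl .h * gl .i) ^ 3 = 1 := hw _ _ _ (mw_eq_one Fi22RelA.r_hi)
  cases x <;> cases y
  · exact s_a
  · exact h_ab
  · exact h_ac
  · exact h_ad
  · exact h_ae
  · exact h_af
  · exact h_ag
  · exact h_ah
  · exact h_ai
  · exact hsymm _ _ _ h_ab
  · exact s_b
  · exact h_bc
  · exact h_bd
  · exact h_be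
  · exact h_bf
  · exact h_bg
  · exact h_bh
  · exact h_bi
  · exact hsymm _ _ _ h_ac
  · exact hsymm _ _ _ h_bc
  · exact s_c
  · exact h_cd
  · exact h_ce
  · exact h_cf
  · exact h_cg
  · exact h_ch
  · exact h_ci
  · exact hsymm _ _ _ h_ad
  · exact hsymm _ _ _ h_bd
  · exact hsymm _ _ _ h_cd
  · exact s_d
  · exact h_de
  · exact h_df
  · exact h_dg
  · exact h_dh
  · exact h_di
  · exact hsymm _ _ _ h_ae
  · exact hsymm _ _ _ h_be
  · exact hsymm _ _ _ h_ce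
  · exact hsymm _ _ _ h_de
  · exact s_e
  · exact h_ef
  · exact h_eg
  · exact h_eh
  · exact h_ei
  · exact hsymm _ _ _ h_af
  · exact hsymm _ _ _ h_bf
  · exact hsymm _ _ _ h_cf
  · exact hsymm _ _ _ h_df
  · exact hsymm _ _ _ h_ef
  · exact s_f
  · exact h_fg
  · exact h_fh
  · exact h_fi
  · exact hsymm _ _ _ h_ag
  · exact hsymm _ _ _ h_bg
  · exact hsymm _ _ _ h_cg
  · exact hsymm _ _ _ h_dg
  · exact hsymm _ _ _ h_eg
  · exact hsymm _ _ _ h_fg
  · exact s_g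
  · exact h_gh
  · exact h_gi
  · exact hsymm _ _ _ h_ah
  · exact hsymm _ _ _ h_bh
  · exact hsymm _ _ _ h_ch
  · exact hsymm _ _ _ h_dh
  · exact hsymm _ _ _ h_eh
  · exact hsymm _ _ _ h_fh
  · exact hsymm _ _ _ h_gh
  · exact s_h
  · exact h_hi
  · exact hsymm _ _ _ h_ai
  · exact hsymm _ _ _ h_bi
  · exact hsymm _ _ _ h_ci
  · exact hsymm _ _ _ h_di
  · exact hsymm _ _ _ h_ei
  · exact hsymm _ _ _ h_fi
  · exact hsymm _ _ _ h_gi
  · exact hsymm _ _ _ h_hi
  · exact s_i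

theorem lift_word (w : List Fi22.Gen) :
    FreeGroup.lift gl ((w.map FreeGroup.of).prod) = (w.map gl).prod := by
  induction w with
  | nil => simp
  | cons x w ih => rw [List.map_cons, List.prod_cons, map_mul, ih, FreeGroup.lift_apply_of]; rfl

theorem spider : (gl .d * gl .c * gl .b * gl .d * gl .e * gl .f * gl .d * gl .h * gl .i) ^ 10 = 1 := by
  have := pow_word_eq_one [.d, .c, .b, .d, .e, .f, .d, .h, .i] 10 (mw_eq_one Fi22RelB.spider)
  simpa only [List.map_cons, List.map_nil, List.prod_cons, List.prod_nil, mul_one, mul_assoc] using this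

theorem e7a : (gl .a * gl .b * gl .c * gl .d * gl .e * gl .f * gl .h) ^ 9 = 1 := by
  have := pow_word_eq_one [.a, .b, .c, .d, .e, .f, .h] 9 (mw_eq_one Fi22RelC.e7a)
  simpa only [List.map_cons, List.map_nil, List.prod_cons, List.prod_nil, mul_one, mul_assoc] using this

theorem e7b : (gl .b * gl .c * gl .d * gl .e * gl .f * gl .g * gl .h) ^ 9 = 1 := by
  have := pow_word_eq_one [.b, .c, .d, .e, .f, .g, .h] 9 (mw_eq_one Fi22RelD.e7b)
  simpa only [List.map_cons, List.map_nil, List.prod_cons, List.prod_nil, mul_one, mul_assoc] using this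

theorem rels : ∀ r ∈ (coxRelators Fi22.edges ∪ {r | r ∈ Fi22.extra} : Set (FreeGroup Fi22.Gen)),
    FreeGroup.lift gl r = 1 := by
  rintro r (⟨x, -, y, -, rfl⟩ | hr)
  · rw [map_pow, map_mul, FreeGroup.lift_apply_of, FreeGroup.lift_apply_of]
    exact pair_rel x y
  · have hr' : r ∈ Fi22.extra := hr
    simp only [Fi22.extra, List.mem_cons, List.not_mem_nil, or_false] at hr'
    rcases hr' with rfl | rfl | rfl
    · simp only [map_pow, map_mul, FreeGroup.lift_apply_of]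
      exact spider
    · simp only [map_pow, map_mul, FreeGroup.lift_apply_of]
      exact e7a
    · simp only [map_pow, map_mul, FreeGroup.lift_apply_of]
      exact e7b

/-- The representation of degree 78 over the field with 13 elements. -/
noncomputable def rho : Cfsg.Spor.Fi22 →* GL (Fin 78) (ZMod 13) := PresentedGroup.toGroup rels

theorem rho_of (x : Fi22.Gen) : rho (PresentedGroup.of x) = gl x := PresentedGroup.toGroup.of rels

theorem mw_a : mw [.a] = mat C Ga :=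
  mul_one (mat C Ga)

theorem gl_a_ne_one : gl .a ≠ 1 := by
  intro h
  have h1 : mw [.a] = 1 := by rw [← coe_gl, h, Units.val_one]
  rw [mw_a] at h1
  have h3 : mat C Ga ⟨2, by decide⟩ ⟨2, by decide⟩ ≠ 1 := by
    rw [mat_def]
    decide +kernel
  apply h3
  have h4 := congrFun (congrFun h1 ⟨2, by decide⟩) ⟨2, by decide⟩
  exact h4.trans (Matrix.one_apply_eq _)

end Cfsg.Agent.H852.Fi22Rep
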